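import Cfsg.Agent.H35.T1692.PChk0
import Cfsg.Agent.H35.T1692.PChk1
import Cfsg.Agent.H35.T1692.PChk2
import Cfsg.Agent.H35.T1692.PChk3
import Cfsg.Agent.H35.T1692.PChk4
import Cfsg.Agent.H35.T1692.PChk5
import Cfsg.Agent.H35.T1692.PChk6
import Cfsg.Agent.H35.T1692.PChk7
import Cfsg.Agent.H35.T1692.PChk8
import Cfsg.Agent.H35.T1692.PChk9
import Cfsg.Agent.H35.T1692.PChk10
import Cfsg.Agent.H35.T1692.PChk11
import Cfsg.Agent.H35.T1692.PChk12
import Cfsg.Agent.H35.T1692.PChk13
import Cfsg.Agent.H35.T1692.PChk14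
import Cfsg.Agent.H35.T1692.PChk15

set_option autoImplicit false
set_option linter.all false

namespace Cfsg.Agent.H35

theorem t1692_pall : ∀ p, p < 122760 → t1692_pf p = true := by
  apply allR_blocks t1692_pf 122760 6 1919 _ (by decide)
  intro k hk
  by_cases h0 : k < 120
  · exact t1692_pfile_0 k h0 (by omega)
  by_cases h1 : k < 240
  · exact t1692_pfile_1 k h1 (by omega)
  by_cases h2 : k < 360
  · exact t1692_pfile_2 k h2 (by omega)
  by_cases h3 : k < 480
  · exact t1692_pfile_3 k h3 (by omega)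
  by_cases h4 : k < 600
  · exact t1692_pfile_4 k h4 (by omega)
  by_cases h5 : k < 720
  · exact t1692_pfile_5 k h5 (by omega)
  by_cases h6 : k < 840
  · exact t1692_pfile_6 k h6 (by omega)
  by_cases h7 : k < 960
  · exact t1692_pfile_7 k h7 (by omega)
  by_cases h8 : k < 1080
  · exact t1692_pfile_8 k h8 (by omega)
  by_cases h9 : k < 1200
  · exact t1692_pfile_9 k h9 (by omega)
  by_cases h10 : k < 1320
  · exact t1692_pfile_10 k h10 (by omega)
  by_cases h11 : k < 1440
  · exact t1692_pfile_11 k h11 (by omega)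
  by_cases h12 : k < 1560
  · exact t1692_pfile_12 k h12 (by omega)
  by_cases h13 : k < 1680
  · exact t1692_pfile_13 k h13 (by omega)
  by_cases h14 : k < 1800
  · exact t1692_pfile_14 k h14 (by omega)
  by_cases h15 : k < 1919
  · exact t1692_pfile_15 k h15 (by omega)
  exact absurd hk (by omega)

theorem t1692_psub : t1692_pd.subOK t1692_sw = true := by decide +kernel

end Cfsg.Agent.H35
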